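import Cfsg.Agent.H736.Co3.D8
import Cfsg.Agent.H748.Co3.Ker8

/-!
# S1920, `E₈(q)`, THETA16: the interface (helper736's `d8i_of` with the kernel of `Ker8`; helper748)
-/

set_option autoImplicit false

namespace Cfsg.Agent.H748.Co3.Ker8

open Cfsg Cfsg.Lie Matrix
open Cfsg.Agent.H736.Co3
open Cfsg.Agent.LieClassical.OrthForms

universe u

variable {F : Type u} [Field F]

/-- **the kernel on `Lp T8` in `C_G(z)`** -/
theorem hk8 (h2 : (2 : F) ≠ 0) (g : ↥(chevE8.group F)) (_ : g * z8 F = z8 F * g)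
    (h : ∀ v ∈ Lp T8 chevE8 F, ((g : GL chevE8.Idx F) : Matrix chevE8.Idx chevE8.Idx F) *ᵥ v = v) : g = 1 ∨ g = z8 F := by
  rcases ker8_one h2 (z8 F).2 (hz8 h2) g.2 h with h1 | h1
  · exact Or.inl (Subtype.ext h1)
  · exact Or.inr (Subtype.ext h1)

open Cfsg.Agent.H64.Co3 in
/-- **the interface** -/
theorem d8i [Finite F] (ho : Odd (Nat.card F)) (h2 : (2 : F) ≠ 0) : D8I (plusForm T8.m F) (z8 F) (R8 (F := F)) :=
  d8i_of ho h2 (hk8 h2)

end Cfsg.Agent.H748.Co3.Ker8
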